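import Cfsg.Agent.H2.M11b
import Cfsg.Agent.H9.Tools2

/-! The normaliser of a Sylow 3-subgroup of a simple group of order 7920. -/

set_option autoImplicit false
set_option linter.unusedSectionVars false

namespace H2
open Cfsg H8 Subgroup MulAction
open scoped Pointwise

namespace M11

theorem exists_elts {G : Type*} [Group G] [Finite G] [IsSimpleGroup G] (hN : Nat.card G = 7920) :
    ∃ a b c : G, a ^ 3 = 1 ∧ b ^ 3 = 1 ∧ a * b = b * a ∧ a ≠ 1 ∧ b ≠ 1 ∧ b ≠ a ∧ b ≠ a ^ 2 ∧
      c ^ 8 = 1 ∧ c ^ 4 ≠ 1 ∧ c * a = b * c ∧ c * b = a * b * c := by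
  obtain ⟨e⟩ := iso hN
  let φ := KK.subtype.comp e.toMonoidHom
  have hφ : Function.Injective φ := Subtype.val_injective.comp e.injective
  have key : ∀ c, inM24 c = true → imgC c dodD = dodD → ap c 0 = 0 → ∃ g, Rep (φ g) c :=
    fun c h1 h2 h3 => by
    obtain ⟨k, hk, h4⟩ := ((repIn_M24 h1).stab_fs h2).stab_pt (by norm_num) h3
    exact ⟨e.symm ⟨k, hk⟩, by simpa [φ] using h4⟩
  obtain ⟨a, ha⟩ := key 816061783011650072799398389186036928 (by decide +kernel)
    (by decide +kernel) (by decide +kernel)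
  obtain ⟨b, hb⟩ := key 320042145551982130541103166004830592 (by decide +kernel)
    (by decide +kernel) (by decide +kernel)
  obtain ⟨c, hc⟩ := key 238368207381038286010395252696026528 (by decide +kernel)
    (by decide +kernel) (by decide +kernel)
  have eq : ∀ {g k : G} {s t : ℕ}, Rep (φ g) s → Rep (φ k) t → s = t → g = k :=
    fun h1 h2 e => hφ (h1.unique (e ▸ h2))
  have ne : ∀ {g k : G} {s t : ℕ}, Rep (φ g) s → Rep (φ k) t → ap s 1 ≠ ap t 1 → g ≠ k :=
    fun h1 h2 e e' => e (by rw [← h1 1 (by norm_num), ← h2 1 (by norm_num), e'])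
  have mul : ∀ {g k : G} {s t : ℕ}, Rep (φ g) s → Rep (φ k) t → Rep (φ (g * k)) (mulC s t) :=
    fun h1 h2 => by rw [map_mul]; exact h1.mul h2
  have pow : ∀ {g : G} {s : ℕ}, Rep (φ g) s → ∀ n, Rep (φ (g ^ n)) (powC s n) :=
    fun h1 n => by rw [map_pow]; exact h1.pow n
  have one : Rep (φ 1) oneC := by rw [map_one]; exact rep_one
  exact ⟨a, b, c, eq (pow ha 3) one (by decide +kernel), eq (pow hb 3) one (by decide +kernel),
    eq (mul ha hb) (mul hb ha) (by decide +kernel), ne ha one (by decide +kernel),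
    ne hb one (by decide +kernel), ne hb ha (by decide +kernel),
    ne hb (pow ha 2) (by decide +kernel), eq (pow hc 8) one (by decide +kernel),
    ne (pow hc 4) one (by decide +kernel), eq (mul hc ha) (mul hb hc) (by decide +kernel),
    eq (mul hc hb) (mul (mul ha hb) hc) (by decide +kernel)⟩

theorem card_norm3 {G : Type*} [Group G] [Finite G] [IsSimpleGroup G] (hN : Nat.card G = 7920)
    (P : Sylow 3 G) : Nat.card (normalizer ((P : Subgroup G) : Set G)) = 144 := by
  classical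
  have := Fintype.ofFinite G
  obtain ⟨a, b, c, a3, b3, ab, a1, b1, ba, ba2, c8, c4, ca, cb⟩ := exists_elts hN
  have oa : orderOf a = 3 := orderOf_eq_prime a3 a1
  have h1 : IsPGroup 3 ↥(zpowers a ⊔ zpowers b) :=
    (H9.isPGroup_zpowers (k := 1) a3).to_sup_of_normal_right' (H9.isPGroup_zpowers (k := 1) b3)
      (zpowers_le.2 (H9.mem_Nor.2 (by rw [ab]; simp)))
  obtain ⟨Q, hQ⟩ := h1.exists_le_sylow
  have h2 : Nat.card (Q : Subgroup G) = 3 ^ 2 := H9.card_sylow_eq Q (m := 880) hN (by decide)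
  have h3 : zpowers a ⊔ zpowers b = Q := by
    refine eq_of_le_of_card_ge hQ ?_
    obtain ⟨k, hk⟩ := IsPGroup.iff_card.1 h1
    have h4 : Nat.card (zpowers a) < Nat.card ↥(zpowers a ⊔ zpowers b) := by
      refine lt_of_le_of_ne (card_le_of_le le_sup_left) fun e => ?_
      have h5 : b ∈ zpowers a := eq_of_le_of_card_ge le_sup_left e.ge ▸ mem_sup_right (mem_zpowers b)
      rw [mem_zpowers_iff_mem_range_orderOf, oa] at h5
      simp only [Finset.mem_image, Finset.mem_range] at h5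
      obtain ⟨i, hi, rfl⟩ := h5
      interval_cases i <;> simp at b1 ba ba2
    rw [Nat.card_zpowers, oa, hk] at h4
    rw [h2, hk]
    exact Nat.pow_le_pow_right (by norm_num) (by
      by_contra h5
      interval_cases k <;> omega)
  have h4 : c ∈ normalizer ((Q : Subgroup G) : Set G) := by
    refine H9.mem_normalizer_of_conj_mem fun g hg => ?_
    have ha : a ∈ (Q : Subgroup G) := hQ (mem_sup_left (mem_zpowers a))
    have hb : b ∈ (Q : Subgroup G) := hQ (mem_sup_right (mem_zpowers b))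
    have : (Q : Subgroup G) ≤ (Q : Subgroup G).comap (MulAut.conj c).toMonoidHom := by
      conv_lhs => rw [← h3]
      refine sup_le (zpowers_le.2 ?_) (zpowers_le.2 ?_)
      · change c * a * c⁻¹ ∈ (Q : Subgroup G)
        rwa [ca, mul_inv_cancel_right]
      · change c * b * c⁻¹ ∈ (Q : Subgroup G)
        rw [cb, mul_inv_cancel_right]; exact mul_mem ha hb
    exact this hg
  have h5 := orderOf_dvd_natCard _ h4
  rw [orderOf_eq_prime_pow (p := 2) (n := 2) c4 c8] at h5
  have h6 : Nat.card (Q : Subgroup G) ∣ Nat.card (normalizer ((Q : Subgroup G) : Set G)) :=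
    card_dvd_of_le le_normalizer
  have h7 : ¬ 5 ∣ Nat.card (normalizer ((Q : Subgroup G) : Set G)) := fun h7 => by
    obtain ⟨⟨y, hy⟩, hy5⟩ := exists_prime_orderOf_dvd_card' 5 h7
    rw [← orderOf_coe] at hy5
    obtain ⟨x, h⟩ := exists_defOne (p := 11) (m := 720) hN (by decide)
    obtain ⟨T⟩ := exists_T11 h (loc11 hN h).1 (loc11 hN h).2.1
    have h5 : DefOne 5 y := ⟨hy5, by rw [hN]; decide⟩
    have e1 := h5.card_Cx
    rw [(loc5 hN h T h5).1, card_bot] at e1
    have e2 := H9.card_modEq_card_inter_Cen (p := 5) (· ∈ (Q : Subgroup G)) y (k := 1) h5.pow_p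
      fun g hg => (mem_normalizer_iff.1 hy g).1 hg
    change Nat.card (Q : Subgroup G) ≡ Nat.card ↥((Q : Subgroup G) ⊓ Cx y) [MOD 5] at e2
    have e3 : Nat.card ↥((Q : Subgroup G) ⊓ Cx y) ∣ Nat.gcd (3 ^ 2) (5 * 1) :=
      Nat.dvd_gcd (h2 ▸ card_dvd_of_le inf_le_left) (e1 ▸ card_dvd_of_le inf_le_right)
    rw [h2, Nat.dvd_one.1 e3] at e2
    revert e2; decide
  have h8 := (normalizer ((Q : Subgroup G) : Set G)).card_mul_index
  have h9 := (normalizer ((P : Subgroup G) : Set G)).card_mul_index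
  have h10 := card_sylow_modEq_one 3 G
  have h11 := two_mul_card_dvd_factorial_card_sylow (nc hN) (p := 3) (by rw [hN]; decide)
  have h13 : ∀ R : Sylow 3 G, (normalizer ((R : Subgroup G) : Set G)).index =
      Nat.card (Sylow 3 G) := fun R => R.card_eq_index_normalizer.symm
  rw [h13, hN] at h8 h9
  rw [hN] at h11
  have k : ∀ n ∈ dvs 7920, 2 ^ (2 + 1) ∣ n → 3 ^ 2 ∣ n → ¬ 5 ∣ n → 7920 / n ≡ 1 [MOD 3] →
      n = 144 ∨ 7920 / n = 10 := by decide +kernel
  have h12 : 7920 / Nat.card (normalizer ((Q : Subgroup G) : Set G)) = Nat.card (Sylow 3 G) := by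
    rw [← h8, Nat.mul_div_cancel_left _ Nat.card_pos]
  rcases k _ (mem_dvs (by norm_num) (Dvd.intro _ h8)) h5 (h2 ▸ h6) h7 (h12 ▸ h10) with e | e
  · rw [e] at h12
    rw [← h12] at h9
    omega
  · rw [← h12, e] at h11
    exact absurd h11 (by decide)

end M11

end H2
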